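import Mathlib
import Cfsg.Agent.ODDC.SeqInd
import Cfsg.Agent.ODDC.PF1c

/-! Bridge from `Coherent` on `seqIndD H L H ⊥` to the frozen `IsCoherent`. -/

set_option autoImplicit false
set_option linter.unusedSectionVars false
open Cfsg CL.BG
open scoped ComplexConjugate Classical

namespace CL.PF

variable {Γ : Type*} [Group Γ] [Finite Γ] {H L : Subgroup Γ}

theorem mem_inducedIrrAbove_bot_iff [Fintype L] (hHL : H ≤ L) {φ : L → ℂ} :
    φ ∈ inducedIrrAbove (H.subgroupOf L) ⊥ ↔ extendByZero L φ ∈ seqIndD H L H ⊥ := by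
  rw [mem_seqIndC1]
  constructor
  · rintro ⟨θ, h1, h2, -, rfl⟩
    let θ' : H → ℂ := fun x => θ ((Subgroup.subgroupOfEquivOfLe hHL).symm x)
    have e : (fun x : H.subgroupOf L => extendByZero H θ' (x : L)) = θ := funext fun x => by
      rw [ext0_of_mem θ' (x := (x : L)) x.2]; rfl
    refine ⟨extendByZero H θ', ext0_mem_Irr.mpr (h1.comp_mulEquiv _), fun h => h2 ?_, ?_⟩
    · rw [← e, h]; exact funext fun x => triv_of_mem x.2
    · rw [← e, ← ind_eq_indFun hHL, ext0_fun, res_eq_self (ind_mem_CF H L _).1]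
  · rintro ⟨θ, h1, h2, e⟩
    refine ⟨fun x => θ (x : L), Irr.subgroupOf hHL h1, fun h => h2 (funext fun x => ?_),
      fun a ha => ?_, ?_⟩
    · by_cases hx : x ∈ H
      · rw [triv_of_mem hx]; exact congrFun h ⟨⟨x, hHL hx⟩, hx⟩
      · rw [(Irr.cf h1).1 x hx, (triv_mem_CF H).1 x hx]
    · rw [show a = 1 from Subtype.ext (Subgroup.mem_bot.mp ha)]
    · rw [← ind_eq_indFun hHL, ← e, ext0_restrict]

theorem ext0_mem_ZS_of_zspan {S : Finset (Γ → ℂ)} {T : Set (L → ℂ)}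
    (h : ∀ φ ∈ T, extendByZero L φ ∈ S) {α : L → ℂ} (hα : α ∈ zspan T) :
    extendByZero L α ∈ ZS S := by
  induction hα using Submodule.span_induction with
  | mem x hx => exact ZS.of_mem (h x hx)
  | zero => rw [← ext0L_apply, map_zero]; exact zero_mem _
  | add x y _ _ hx hy => rw [← ext0L_apply, map_add]; exact add_mem hx hy
  | smul n x _ hx => rw [← ext0L_apply, map_zsmul]; exact Submodule.smul_mem _ n hx

/-- passing from `Coherent` to the frozen notion -/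
theorem Coherent.isCoherent_of {G : Type*} [Group G] [Fintype G] {L : Subgroup G} [Fintype L]
    {S : Finset (G → ℂ)} {T : Set (L → ℂ)} (hT : ∀ φ ∈ T, extendByZero L φ ∈ S)
    {τ : (G → ℂ) →ₗ[ℂ] (G → ℂ)} (h : Coherent L ⊤ S τ) {τ' : (L → ℂ) → (G → ℂ)}
    (hτ : ∀ α, extendByZero L α ∈ ZS0 S → τ (extendByZero L α) = τ' α)
    (hne : ∃ α ∈ zspanOn T {1}ᶜ, α ≠ 0) : IsCoherent T {1}ᶜ τ' := by
  obtain ⟨ν, hν⟩ := h
  refine ⟨hne, fun α => ν (extendByZero L α), ⟨fun α _ β _ => ?_, fun α _ n => ?_,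
    fun α hα β hβ => ?_, fun α hα => ?_⟩, fun α hα => ?_⟩
  · simp only [← ext0L_apply, map_add]
  · simp only [← ext0L_apply, map_zsmul]
  · have := hν.iso.ip_eq _ (ext0_mem_ZS_of_zspan hT hα) _ (ext0_mem_ZS_of_zspan hT hβ)
    rwa [ip_top, ip_eq_classInner, ext0_restrict, ext0_restrict] at this
  · exact mem_ZIrr_top.mp (hν.iso.mem _ (ext0_mem_ZS_of_zspan hT hα))
  · have hm : extendByZero L α ∈ ZS0 S := ⟨ext0_mem_ZS_of_zspan hT hα.1, by
      rw [ext0_of_mem _ L.one_mem]; exact hα.2 1 (by simp)⟩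
    exact (hν.eq _ hm).trans (hτ α hm)

theorem exists_zspanOn_ne_zero [Fintype L] (hn : NormalIn H L) (hodd : Odd (Nat.card L))
    (hH : H ≠ ⊥) : ∃ α ∈ zspanOn (inducedIrrAbove (H.subgroupOf L) ⊥) {1}ᶜ, α ≠ 0 := by
  obtain ⟨θ, h1, h2⟩ : ∃ θ ∈ Irr H, θ ≠ triv H := by
    obtain ⟨⟨x, hx⟩, hx1⟩ := Subgroup.ne_bot_iff_exists_ne_one.mp hH
    obtain ⟨θ, h1, -, h3⟩ := exists_Irr_ker_of_not_mem (M := ⊥) ⟨bot_le, le_norm_bot H⟩
      (fun e => hx1 (Subtype.ext (Subgroup.mem_bot.mp e)))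
    exact ⟨θ, h1, fun e => h3 (by rw [e, cfker_triv]; exact hx)⟩
  have hχ := ind_mem_seqIndC1 L h1 h2
  set χ := ind H L θ
  have key : ∀ ψ ∈ seqIndD H L H ⊥,
      (fun x : L => ψ x) ∈ zspan (inducedIrrAbove (H.subgroupOf L) ⊥) := fun ψ hψ =>
    Submodule.subset_span ((mem_inducedIrrAbove_bot_iff hn.1).mpr (by
      rwa [ext0_fun, res_eq_self (seqIndD.cf hψ).1]))
  refine ⟨(fun x : L => χ x) - fun x : L => star χ x, ⟨sub_mem (key _ hχ)
    (key _ (seqIndD.star_mem hχ)), fun x hx => ?_⟩, fun e => ?_⟩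
  · obtain rfl : x = 1 := by simpa using hx
    exact sub_eq_zero.mpr (seqIndD.isChar hn.1 hχ).star_apply_one.symm
  · refine seqIndD.star_ne_of_odd hn hodd le_rfl hχ (funext fun x => ?_)
    by_cases hx : x ∈ L
    · exact (sub_eq_zero.mp (congrFun e ⟨x, hx⟩)).symm
    · rw [(seqIndD.cf hχ).1 x hx, (seqIndD.cf (seqIndD.star_mem hχ)).1 x hx]

theorem Coherent.isCoherent {G : Type*} [Group G] [Fintype G] {H L : Subgroup G} [Fintype L]
    (hn : NormalIn H L) (hodd : Odd (Nat.card L)) (hH : H ≠ ⊥)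
    {τ : (G → ℂ) →ₗ[ℂ] (G → ℂ)} (h : Coherent L ⊤ (seqIndD H L H ⊥) τ) {τ' : (L → ℂ) → (G → ℂ)}
    (hτ : ∀ α, extendByZero L α ∈ ZS0 (seqIndD H L H ⊥) → τ (extendByZero L α) = τ' α) :
    IsCoherent (inducedIrrAbove (H.subgroupOf L) ⊥) {1}ᶜ τ' :=
  h.isCoherent_of (fun _ => (mem_inducedIrrAbove_bot_iff hn.1).mp) hτ
    (exists_zspanOn_ne_zero hn hodd hH)

end CL.PF
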