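import Mathlib
import Cfsg.Agent.ODDC.PrimeTI
import Cfsg.Prelude.Def_OddOrderChar

/-! Bridge between the ambient form of Peterfalvi's sections 3-4 and the statements' form. -/

set_option autoImplicit false
set_option linter.unusedSectionVars false
open Cfsg CL.BG
open scoped ComplexConjugate Classical

namespace CL.PF

variable {G : Type*} [Group G]

namespace DP

variable {W W1 W2 : Subgroup G} (d : DP W W1 W2)
include d

/-- `ω_{ij}` as a homomorphism -/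
noncomputable def hm (i : Dual W1) (j : Dual W2) : W →* ℂˣ := (d.hom i j).hom

theorem hm_surj (ω : W →* ℂˣ) : ∃ i j, ω = d.hm i j := d.hom_surj (Dual.ofHom ω)

theorem hm_inj {i i' : Dual W1} {j j' : Dual W2} : d.hm i j = d.hm i' j' ↔ i = i' ∧ j = j' :=
  d.hom_inj

theorem hm_one : d.hm 1 1 = 1 := d.hom_one

theorem hm_mul (i i' : Dual W1) (j j' : Dual W2) :
    d.hm i j * d.hm i' j' = d.hm (i * i') (j * j') := (d.hom_mul i i' j j').symm

theorem hm_inv (i : Dual W1) (j : Dual W2) : (d.hm i j)⁻¹ = d.hm i⁻¹ j⁻¹ :=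
  (map_inv d.homEquiv (i, j)).symm

theorem hm_trivial2 (ω : W →* ℂˣ) : (∀ w : W, (w : G) ∈ W2 → ω w = 1) ↔ ∃ i, ω = d.hm i 1 := by
  refine Iff.trans ?_ (d.hom_trivial2 (Dual.ofHom ω))
  exact ⟨fun H b hb => by rw [lin_of_mem _ (d.le2 hb), Dual.hom_ofHom, H _ hb, Units.val_one],
    fun H w hw => Units.ext (by simpa [lin_coe, Dual.hom_ofHom] using H w hw)⟩

theorem hm_trivial1 (ω : W →* ℂˣ) : (∀ w : W, (w : G) ∈ W1 → ω w = 1) ↔ ∃ j, ω = d.hm 1 j := by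
  refine Iff.trans ?_ (d.hom_trivial1 (Dual.ofHom ω))
  exact ⟨fun H b hb => by rw [lin_of_mem _ (d.le1 hb), Dual.hom_ofHom, H _ hb, Units.val_one],
    fun H w hw => Units.ext (by simpa [lin_coe, Dual.hom_ofHom] using H w hw)⟩

theorem hm_trivial2_iff (i : Dual W1) (j : Dual W2) :
    (∀ w : W, (w : G) ∈ W2 → d.hm i j w = 1) ↔ j = 1 := by
  rw [d.hm_trivial2]; simp [d.hm_inj]

theorem hm_trivial1_iff (i : Dual W1) (j : Dual W2) :
    (∀ w : W, (w : G) ∈ W1 → d.hm i j w = 1) ↔ i = 1 := by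
  rw [d.hm_trivial1]; simp [d.hm_inj]

variable [Finite G]

theorem hm_apply (i : Dual W1) (j : Dual W2) (w : W) : (d.hm i j w : ℂ) = om i j w := by
  rw [d.om_eq_lin, lin_coe]; rfl

theorem hm_alpha (i : Dual W1) (j : Dual W2) :
    (fun w : W => 1 - (d.hm i 1 w : ℂ) - (d.hm 1 j w : ℂ) + (d.hm i 1 w : ℂ) * (d.hm 1 j w : ℂ)) =
      fun w : W => cycAlpha i j w := by
  funext w
  simp only [d.hm_apply, d.alpha_eq, Pi.add_apply, Pi.sub_apply, triv_of_mem w.2, d.om_split i j,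
    Pi.mul_apply]

end DP

variable [Fintype G] {W1 W2 : Subgroup G}

theorem cycFam_of_family (hW : IsSelfNormalizingCyclic W1 W2) {χ : (↥(W1 ⊔ W2) →* ℂˣ) → G → ℂ}
    (hχ : IsCyclicTIFamily W1 W2 χ) :
    CycFam ⊤ (W1 ⊔ W2) W1 W2 fun i j => χ ((dp_of_selfNormalizing hW).hm i j) := by
  have d := dp_of_selfNormalizing hW
  refine ⟨d, normedTI_of_selfNormalizing hW, fun i j => isDirr_top.mpr (hχ.irr_or_neg _),
    fun i i' j j' => by rw [ip_top, hχ.orthonormal]; simp only [d.hm_inj],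
    by rw [d.hm_one, hχ.map_one, triv_top], fun i j hi hj => ?_⟩
  have := hχ.induced_eq (d.hm i 1) (d.hm 1 j) (by simpa [← d.hm_one, d.hm_inj] using hi)
    (by simpa [← d.hm_one, d.hm_inj] using hj) ((d.hm_trivial2_iff _ _).mpr rfl)
    ((d.hm_trivial1_iff _ _).mpr rfl)
  rw [d.hm_alpha, d.hm_mul, mul_one, one_mul] at this
  rw [ind_top_eq_indFun, this, triv_top]; rfl

omit [Fintype G] in
theorem primeTI_top (K W₁ W₂ : Subgroup G) [hK : K.Normal] (hKW₁ : K ⊓ W₁ = ⊥)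
    (hKW₁' : K ⊔ W₁ = ⊤) (hW₁ : W₁ ≠ ⊥) (hW₁c : IsCyclic W₁)
    (hHall : Nat.Coprime (Nat.card W₁) W₁.index) (hW₂ : W₂ ≠ ⊥) (hW₂c : IsCyclic W₂)
    (hW₂K : W₂ ≤ K) (hC : ∀ x ∈ W₁, x ≠ 1 → K ⊓ Subgroup.centralizer ({x} : Set G) = W₂)
    (hodd : Odd (Nat.card ↥(W₁ ⊔ W₂))) : PrimeTI ⊤ K (W₁ ⊔ W₂) W₁ W₂ := by
  have hn : W₁ ≤ 𝐍(K) := le_top.trans (normalIn_top_iff.mpr hK).2
  exact ⟨⟨IsComplIn.of_prodEq (prodEq_of_sup_eq hn hKW₁') hKW₁, hn⟩, hW₁,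
    ⟨le_top, by rwa [Subgroup.relIndex_top_right]⟩, hW₁c, hW₂, hW₂K, hW₂c, hC, rfl, hodd⟩

end CL.PF
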